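import Mathlib
import Cfsg.Agent.Lib.Helper70.Alp.S3782Defs
import Cfsg.Agent.Lib.Helper63.FrattiniAction
import Cfsg.Agent.Lib.Helper63.HallHigman
import Cfsg.Agent.Lib.Helper50.FrattiniRep
import Cfsg.Agent.Lib.Helper87.PGroupFrattini
import Cfsg.Agent.Lib.Helper79.SolvPSolv

/-!
# S3782, package (G) `LemTop` (helper10)

If `O_{p'}(H) = 1` and `H` is solvable with an automorphism `β`, `β ^ p = 1`, with at most `p ^ n`
fixed points, then `|H / O_p(H)| ≤ topB p n`: the quotient acts faithfully on the Frattini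
quotient of `O_p(H)`, whose order is at most `p ^ (p * n)` by `LemSecCard`.
-/

set_option autoImplicit false

namespace Cfsg.Agent.Lib.Helper10.Alp

open Cfsg Cfsg.Agent.Lib.Helper70.Alp

universe u

/-- The number of automorphisms of a finite group of order `m` is at most `m ^ m`. -/
theorem card_mulAut_le (X : Type u) [Group X] [Finite X] :
    Nat.card (MulAut X) ≤ Nat.card X ^ Nat.card X := by
  have h1 : Nat.card (MulAut X) ≤ Nat.card (X → X) :=
    Nat.card_le_card_of_injective (fun e : MulAut X => (e : X → X)) DFunLike.coe_injective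
  rwa [Nat.card_fun] at h1

/-- (G) `LemTop` from `LemSecCard`. -/
theorem lemTop (hC : LemSecCard.{u}) : LemTop.{u} := by
  intro p _ H _ _ β n hsol hO hβ hfix
  have hp : p.Prime := Fact.out
  set Q : Subgroup H := Cfsg.pCore p H with hQ
  have hQp : IsPGroup p Q := Cfsg.Agent.Lib.Helper63.pCore_isPGroup' p H
  have hQc : Q.Characteristic := Cfsg.Agent.Lib.Helper63.pCore_characteristic' p H
  have hQn : Q.Normal := inferInstance
  have hmap := map_eq_of_char β Q
  have hΦc : (frattini ↥Q).Characteristic := inferInstance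
  have hΦn : (frattini ↥Q).Normal := inferInstance
  -- the Frattini quotient has order at most `p ^ (p * n)`
  have h1 : Nat.card (⊤ : Subgroup ↥Q) ≤ p ^ (1 * (p * n)) * Nat.card (frattini ↥Q) := by
    refine hC (resAut β Q hmap) n 1 hQp (resAut_pow_eq_one β Q hmap hβ)
      ((card_fix_resAut_le β Q hmap).trans hfix) ⊤ (frattini ↥Q) le_top ?_ ?_ ?_ ?_ ?_
    · intro a _ b hb
      exact hΦn.conj_mem b hb a
    · intro a _ a' _
      exact Cfsg.Agent.Lib.Helper87.comm_mem_frattini hQp a a'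
    · intro a _
      exact Subgroup.mem_top _
    · intro b hb
      have h2 := map_eq_of_char (resAut β Q hmap) (frattini ↥Q)
      rw [← h2]
      exact Subgroup.mem_map_of_mem _ hb
    · intro a _
      rw [pow_one]
      exact Cfsg.Agent.Lib.Helper87.pow_p_mem_frattini hQp a
  have h2 : Nat.card (↥Q ⧸ frattini ↥Q) ≤ p ^ (p * n) := by
    rw [Subgroup.card_top, one_mul,
      Subgroup.card_eq_card_quotient_mul_card_subgroup (frattini ↥Q)] at h1
    exact Nat.le_of_mul_le_mul_right h1 Nat.card_pos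
  -- the action on the Frattini quotient
  let act : H →* MulAut (↥Q ⧸ frattini ↥Q) :=
    (Cfsg.Agent.Lib.Helper50.fr_autQuot (frattini ↥Q)).comp (MulAut.conjNormal (H := Q))
  have hl : ∃ k, PLengthLE p k H :=
    Cfsg.Agent.Lib.Helper63.exists_plengthLE_of_isPSolvable
      (Cfsg.Agent.Lib.Helper79.isPSolvable_of_isSolvable p hsol)
  have hker : act.ker ≤ Q := by
    intro g hg
    have hg' : act g = 1 := hg
    have h3 := (Cfsg.Agent.Lib.Helper50.fr_mem_ker_iff Q g).1 hg'
    exact Cfsg.Agent.Lib.Helper63.mem_pCore_of_trivial_on_frattini hO hl g h3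
  have h3 : Nat.card (H ⧸ Q) ≤ Nat.card (MulAut (↥Q ⧸ frattini ↥Q)) := by
    have h4 : Q.index ∣ act.ker.index := Subgroup.index_dvd_of_le hker
    have h5 : act.ker.index = Nat.card act.range := Subgroup.index_ker act
    have h6 : Nat.card act.range ≤ Nat.card (MulAut (↥Q ⧸ frattini ↥Q)) :=
      Nat.card_le_card_of_injective (fun x : act.range => (x : MulAut (↥Q ⧸ frattini ↥Q)))
        Subtype.val_injective
    have h7 : Q.index ≤ act.ker.index := by
      refine Nat.le_of_dvd ?_ h4
      rw [h5]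
      exact Nat.card_pos
    have h8 : Nat.card (H ⧸ Q) = Q.index := rfl
    rw [h8]
    exact h7.trans (h5 ▸ h6)
  have h4 := card_mulAut_le (↥Q ⧸ frattini ↥Q)
  have hpos : 0 < Nat.card (↥Q ⧸ frattini ↥Q) := Nat.card_pos
  have h5 : Nat.card (↥Q ⧸ frattini ↥Q) ^ Nat.card (↥Q ⧸ frattini ↥Q) ≤ topB p n := by
    unfold topB
    calc Nat.card (↥Q ⧸ frattini ↥Q) ^ Nat.card (↥Q ⧸ frattini ↥Q)
        ≤ (p ^ (p * n)) ^ Nat.card (↥Q ⧸ frattini ↥Q) := Nat.pow_le_pow_left h2 _
      _ ≤ (p ^ (p * n)) ^ (p ^ (p * n)) :=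
        Nat.pow_le_pow_right (Nat.pos_of_ne_zero (pow_ne_zero _ hp.ne_zero)) h2
  exact (h3.trans h4).trans h5

end Cfsg.Agent.Lib.Helper10.Alp
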